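-- Team project CHO (S1082), package [EQUIV-D4-r], engine (helper29, second route):
-- column decomposition of `xMat r t` into integer coefficients of `1, t, t^2` and reduction of
-- the conjugation identity to integer matrix identities that the kernel decides.
import Mathlib
import Cfsg.Agent.Lib.Helper99.CHO.Defs

set_option autoImplicit false
open Matrix

namespace Cfsg.Agent.Lib.Helper29.CHO

open Cfsg.Agent.Lib.Helper99.CHO

universe u

/-- The integer root vector `N_r`. -/
def nZ (r : ℕ) : Matrix (Fin 4 ⊕ Fin 4) (Fin 4 ⊕ Fin 4) ℤ :=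
  Matrix.of fun i j => tab3 nListD4 r (ix8 i) (ix8 j)

/-- The integer Cartan element `h_i`. -/
def hZ (i : ℕ) : Matrix (Fin 4 ⊕ Fin 4) (Fin 4 ⊕ Fin 4) ℤ :=
  Matrix.of fun a c => tab3 hListD4 i (ix8 a) (ix8 c)

/-- The integer model of the Chevalley basis. -/
def bZ : Cfsg.Lie.chevD4.Idx → Matrix (Fin 4 ⊕ Fin 4) (Fin 4 ⊕ Fin 4) ℤ
  | Sum.inl i => hZ i.val
  | Sum.inr r => nZ r.val

/-- Coefficient of `t` in the entry `(row, col)` of `xMat r t`. -/
def xc1 (D : Cfsg.Lie.ChevalleyDatum) (r : Fin D.nroots) (row col : D.Idx) : ℤ :=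
  match col with
  | Sum.inl i =>
    (match row with
     | Sum.inl _ => 0
     | Sum.inr u => if u = r then - ((D.cartanSR.getD i.val #[]).getD r.val 0) else 0)
  | Sum.inr s =>
    if s = r then 0
    else if s.val = D.negIdx.getD r.val 0 then
      (match row with
       | Sum.inl i => (D.coroot.getD r.val #[]).getD i.val 0
       | Sum.inr _ => 0)
    else
      (match row with
       | Sum.inl _ => 0
       | Sum.inr u => ((D.chainCoeff r.val s.val u.val).map fun km => km.2).sum)

/-- Coefficient of `t^2` in the entry `(inr r, col)` of `xMat r t`. -/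
def xc2 (D : Cfsg.Lie.ChevalleyDatum) (r : Fin D.nroots) (col : D.Idx) : ℤ :=
  match col with
  | Sum.inl _ => 0
  | Sum.inr s => if s = r then 0 else if s.val = D.negIdx.getD r.val 0 then -1 else 0

theorem chain_sum_deg1 {F : Type u} [Field F] (t : F) (L : List (ℕ × ℤ))
    (h : ∀ km ∈ L, km.1 = 1) :
    (L.map fun km => ((km.2 : ℤ) : F) * t ^ km.1).sum =
      (((L.map fun km => km.2).sum : ℤ) : F) * t := by
  induction L with
  | nil => simp
  | cons a L ih =>
    have ha : a.1 = 1 := h a (List.mem_cons_self ..)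
    have ih' := ih (fun km hkm => h km (List.mem_cons_of_mem _ hkm))
    simp only [List.map_cons, List.sum_cons, ih', ha, pow_one, Int.cast_add, add_mul]

theorem xMat_entry (D : Cfsg.Lie.ChevalleyDatum) {F : Type u} [Field F] (r : Fin D.nroots) (t : F)
    (hch : ∀ s u : Fin D.nroots, ∀ km ∈ D.chainCoeff r.val s.val u.val, km.1 = 1)
    (row col : D.Idx) :
    D.xMat F r t row col = (if row = col then 1 else 0) + ((xc1 D r row col : ℤ) : F) * t
      + (if row = Sum.inr r then ((xc2 D r col : ℤ) : F) * t ^ 2 else 0) := by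
  rcases col with i | s
  · rcases row with i' | u
    · simp [Cfsg.Lie.ChevalleyDatum.xMat, xc1, xc2]
    · by_cases hu : u = r
      · simp [Cfsg.Lie.ChevalleyDatum.xMat, xc1, xc2, hu]
      · simp [Cfsg.Lie.ChevalleyDatum.xMat, xc1, xc2, hu]
  · by_cases hs : s = r
    · rcases row with i' | u
      · simp [Cfsg.Lie.ChevalleyDatum.xMat, xc1, xc2, hs]
      · by_cases hu : u = r
        · simp [Cfsg.Lie.ChevalleyDatum.xMat, xc1, xc2, hs, hu]
        · simp [Cfsg.Lie.ChevalleyDatum.xMat, xc1, xc2, hs, hu]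
    · have hs' : ¬ r = s := fun h => hs h.symm
      by_cases hn : s.val = D.negIdx.getD r.val 0
      · have hn' := hn
        simp only [Array.getD_eq_getD_getElem?] at hn'
        rcases row with i' | u
        · simp [Cfsg.Lie.ChevalleyDatum.xMat, xc1, xc2, hs, hn']
        · by_cases hus : u = s
          · have hur : u ≠ r := by rw [hus]; exact hs
            simp [Cfsg.Lie.ChevalleyDatum.xMat, xc1, xc2, hs, hn', hus]
          · by_cases hur : u = r
            · simp [Cfsg.Lie.ChevalleyDatum.xMat, xc1, xc2, hs, hs', hn', hus, hur]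
            · simp [Cfsg.Lie.ChevalleyDatum.xMat, xc1, xc2, hs, hn', hus, hur]
      · have hn' := hn
        simp only [Array.getD_eq_getD_getElem?] at hn'
        rcases row with i' | u
        · simp [Cfsg.Lie.ChevalleyDatum.xMat, xc1, xc2, hs, hn']
        · have hL := chain_sum_deg1 t (D.chainCoeff r.val s.val u.val) (hch s u)
          by_cases hus : u = s
          · rw [hus] at hL
            simp [Cfsg.Lie.ChevalleyDatum.xMat, xc1, xc2, hs, hn', hus, hL]
          · simp [Cfsg.Lie.ChevalleyDatum.xMat, xc1, xc2, hs, hn', hus, hL]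

/-- The algebraic core: conjugation by `1 + t n` with `n^2 = 0`, `n b n = - z n`. -/
theorem conj_core {K : Type u} [Field K] {A : Type*} [Ring A] [Algebra K A] (n b : A) (t z : K)
    (hnn : n * n = 0) (hz : n * b * n = -(z • n)) :
    (1 + t • n) * b = (b + t • (n * b - b * n) + t ^ 2 • (z • n)) * (1 + t • n) := by
  have h1 : (n * b - b * n) * n = -(z • n) := by
    rw [sub_mul, hz, mul_assoc, hnn, mul_zero, sub_zero]
  have h2 : (b + t • (n * b - b * n) + t ^ 2 • (z • n)) * (t • n)
      = t • (b * n) + t ^ 2 • (-(z • n)) := by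
    rw [add_mul, add_mul, mul_smul_comm, mul_smul_comm, mul_smul_comm, smul_mul_assoc,
      smul_mul_assoc, smul_mul_assoc, h1, hnn, smul_zero, smul_zero, smul_zero, add_zero,
      smul_smul, ← pow_two]
  rw [mul_add, mul_one, h2, add_mul, one_mul, smul_mul_assoc]
  module

/-- The integer checks for the root `r`. -/
def ChkD4 (r : Fin Cfsg.Lie.chevD4.nroots) : Prop :=
  (∀ s u : Fin Cfsg.Lie.chevD4.nroots,
      ∀ km ∈ Cfsg.Lie.chevD4.chainCoeff r.val s.val u.val, km.1 = 1) ∧
  nZ r.val * nZ r.val = 0 ∧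
  (∀ I : Cfsg.Lie.chevD4.Idx,
    nZ r.val * bZ I - bZ I * nZ r.val = ∑ J, xc1 Cfsg.Lie.chevD4 r J I • bZ J) ∧
  (∀ I : Cfsg.Lie.chevD4.Idx,
    nZ r.val * bZ I * nZ r.val = (- xc2 Cfsg.Lie.chevD4 r I) • nZ r.val)

instance (r : Fin Cfsg.Lie.chevD4.nroots) : Decidable (ChkD4 r) := by
  unfold ChkD4; infer_instance

theorem bD4_eq_map (K : Type u) [Field K] (I : Cfsg.Lie.chevD4.Idx) :
    bD4 K I = (Int.castRingHom K).mapMatrix (bZ I) := by
  rcases I with i | r <;> rfl

theorem ND4_eq_map (K : Type u) [Field K] (r : ℕ) :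
    ND4 K r = (Int.castRingHom K).mapMatrix (nZ r) := rfl

theorem equivD4_of_chk (r : Fin Cfsg.Lie.chevD4.nroots) (h : ChkD4 r) :
    PkgEquivD4At.{u} r.val := by
  obtain ⟨hch, hnn, hY, hZ⟩ := h
  intro K _ hr t I
  have hr' : (⟨r.val, hr⟩ : Fin Cfsg.Lie.chevD4.nroots) = r := rfl
  rw [hr']
  set φ := (Int.castRingHom K).mapMatrix (m := Fin 4 ⊕ Fin 4) with hφ
  have hsum : (∑ J, Cfsg.Lie.chevD4.xMat K r t J I • bD4 K J)
      = φ (bZ I) + t • (φ (nZ r.val) * φ (bZ I) - φ (bZ I) * φ (nZ r.val))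
        + t ^ 2 • (((xc2 Cfsg.Lie.chevD4 r I : ℤ) : K) • φ (nZ r.val)) := by
    have e1 : ∀ J : Cfsg.Lie.chevD4.Idx, Cfsg.Lie.chevD4.xMat K r t J I • bD4 K J
        = (if J = I then bD4 K J else 0)
          + t • φ (xc1 Cfsg.Lie.chevD4 r J I • bZ J)
          + (if J = Sum.inr r then (((xc2 Cfsg.Lie.chevD4 r I : ℤ) : K) * t ^ 2) • bD4 K J
              else 0) := by
      intro J
      rw [xMat_entry Cfsg.Lie.chevD4 r t hch J I, add_smul, add_smul, map_zsmul,
        ← bD4_eq_map]
      congr 1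
      · congr 1
        · split_ifs <;> simp
        · rw [mul_comm, mul_smul, Int.cast_smul_eq_zsmul]
      · split_ifs <;> simp
    rw [Finset.sum_congr rfl (fun J _ => e1 J), Finset.sum_add_distrib, Finset.sum_add_distrib,
      Finset.sum_ite_eq' Finset.univ I, if_pos (Finset.mem_univ _),
      Finset.sum_ite_eq' Finset.univ (Sum.inr r), if_pos (Finset.mem_univ _), ← Finset.smul_sum,
      ← map_sum, ← hY I, map_sub, map_mul, map_mul, bD4_eq_map, mul_comm _ (t ^ 2), mul_smul]
    rfl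
  rw [hsum]
  have hnn' : φ (nZ r.val) * φ (nZ r.val) = 0 := by rw [← map_mul, hnn, map_zero]
  have hz' : φ (nZ r.val) * φ (bZ I) * φ (nZ r.val)
      = -(((xc2 Cfsg.Lie.chevD4 r I : ℤ) : K) • φ (nZ r.val)) := by
    rw [← map_mul, ← map_mul, hZ I, map_zsmul, neg_smul, Int.cast_smul_eq_zsmul]
  have := conj_core (φ (nZ r.val)) (φ (bZ I)) t ((xc2 Cfsg.Lie.chevD4 r I : ℤ) : K) hnn' hz'
  rw [ED4mat, ND4_eq_map, bD4_eq_map]
  exact this

end Cfsg.Agent.Lib.Helper29.CHO
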