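-- Team project CHO (S1082), package [EQUIV-D4-r] (helper29): kernel-decided integer checks,
-- roots r = 0 .. 5.
import Cfsg.Agent.Lib.Helper29.CHO.EquivD4Eng

set_option autoImplicit false

namespace Cfsg.Agent.Lib.Helper29.CHO

set_option maxRecDepth 1000000 in
theorem chkD4_0 : ChkD4 ⟨0, by decide⟩ := by decide +kernel

set_option maxRecDepth 1000000 in
theorem chkD4_1 : ChkD4 ⟨1, by decide⟩ := by decide +kernel

set_option maxRecDepth 1000000 in
theorem chkD4_2 : ChkD4 ⟨2, by decide⟩ := by decide +kernel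

set_option maxRecDepth 1000000 in
theorem chkD4_3 : ChkD4 ⟨3, by decide⟩ := by decide +kernel

set_option maxRecDepth 1000000 in
theorem chkD4_4 : ChkD4 ⟨4, by decide⟩ := by decide +kernel

set_option maxRecDepth 1000000 in
theorem chkD4_5 : ChkD4 ⟨5, by decide⟩ := by decide +kernel

end Cfsg.Agent.Lib.Helper29.CHO
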