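-- Team project CHO (S1082), package [EQUIV-D4-r] (helper29): kernel-decided integer checks,
-- roots r = 6 .. 11.
import Cfsg.Agent.Lib.Helper29.CHO.EquivD4Eng

set_option autoImplicit false

namespace Cfsg.Agent.Lib.Helper29.CHO

set_option maxRecDepth 1000000 in
theorem chkD4_6 : ChkD4 ⟨6, by decide⟩ := by decide +kernel

set_option maxRecDepth 1000000 in
theorem chkD4_7 : ChkD4 ⟨7, by decide⟩ := by decide +kernel

set_option maxRecDepth 1000000 in
theorem chkD4_8 : ChkD4 ⟨8, by decide⟩ := by decide +kernel

set_option maxRecDepth 1000000 in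
theorem chkD4_9 : ChkD4 ⟨9, by decide⟩ := by decide +kernel

set_option maxRecDepth 1000000 in
theorem chkD4_10 : ChkD4 ⟨10, by decide⟩ := by decide +kernel

set_option maxRecDepth 1000000 in
theorem chkD4_11 : ChkD4 ⟨11, by decide⟩ := by decide +kernel

end Cfsg.Agent.Lib.Helper29.CHO
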