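-- Team project CHO (S1082), package [EQUIV-D4-r] (helper29): kernel-decided integer checks,
-- roots r = 12 .. 17.
import Cfsg.Agent.Lib.Helper29.CHO.EquivD4Eng

set_option autoImplicit false

namespace Cfsg.Agent.Lib.Helper29.CHO

set_option maxRecDepth 1000000 in
theorem chkD4_12 : ChkD4 ⟨12, by decide⟩ := by decide +kernel

set_option maxRecDepth 1000000 in
theorem chkD4_13 : ChkD4 ⟨13, by decide⟩ := by decide +kernel

set_option maxRecDepth 1000000 in
theorem chkD4_14 : ChkD4 ⟨14, by decide⟩ := by decide +kernel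

set_option maxRecDepth 1000000 in
theorem chkD4_15 : ChkD4 ⟨15, by decide⟩ := by decide +kernel

set_option maxRecDepth 1000000 in
theorem chkD4_16 : ChkD4 ⟨16, by decide⟩ := by decide +kernel

set_option maxRecDepth 1000000 in
theorem chkD4_17 : ChkD4 ⟨17, by decide⟩ := by decide +kernel

end Cfsg.Agent.Lib.Helper29.CHO
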