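-- Team project CHO (S1082), package [EQUIV-D4-r] (helper29): kernel-decided integer checks,
-- roots r = 18 .. 23.
import Cfsg.Agent.Lib.Helper29.CHO.EquivD4Eng

set_option autoImplicit false

namespace Cfsg.Agent.Lib.Helper29.CHO

set_option maxRecDepth 1000000 in
theorem chkD4_18 : ChkD4 ⟨18, by decide⟩ := by decide +kernel

set_option maxRecDepth 1000000 in
theorem chkD4_19 : ChkD4 ⟨19, by decide⟩ := by decide +kernel

set_option maxRecDepth 1000000 in
theorem chkD4_20 : ChkD4 ⟨20, by decide⟩ := by decide +kernel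

set_option maxRecDepth 1000000 in
theorem chkD4_21 : ChkD4 ⟨21, by decide⟩ := by decide +kernel

set_option maxRecDepth 1000000 in
theorem chkD4_22 : ChkD4 ⟨22, by decide⟩ := by decide +kernel

set_option maxRecDepth 1000000 in
theorem chkD4_23 : ChkD4 ⟨23, by decide⟩ := by decide +kernel

end Cfsg.Agent.Lib.Helper29.CHO
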