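-- Team project CHO (S1082), package [EQUIV-D4-r] for all r < 24 (helper29, second route).
import Cfsg.Agent.Lib.Helper29.CHO.EquivD4ChkA
import Cfsg.Agent.Lib.Helper29.CHO.EquivD4ChkB
import Cfsg.Agent.Lib.Helper29.CHO.EquivD4ChkC
import Cfsg.Agent.Lib.Helper29.CHO.EquivD4ChkD

set_option autoImplicit false

namespace Cfsg.Agent.Lib.Helper29.CHO

open Cfsg.Agent.Lib.Helper99.CHO

universe u

/-- [EQUIV-D4-r] for every root index `r < 24`. -/
theorem pkgEquivD4 : ∀ r, r < 24 → PkgEquivD4At.{u} r := by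
  intro r hr
  interval_cases r
  · exact equivD4_of_chk ⟨0, by decide⟩ chkD4_0
  · exact equivD4_of_chk ⟨1, by decide⟩ chkD4_1
  · exact equivD4_of_chk ⟨2, by decide⟩ chkD4_2
  · exact equivD4_of_chk ⟨3, by decide⟩ chkD4_3
  · exact equivD4_of_chk ⟨4, by decide⟩ chkD4_4
  · exact equivD4_of_chk ⟨5, by decide⟩ chkD4_5
  · exact equivD4_of_chk ⟨6, by decide⟩ chkD4_6
  · exact equivD4_of_chk ⟨7, by decide⟩ chkD4_7
  · exact equivD4_of_chk ⟨8, by decide⟩ chkD4_8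
  · exact equivD4_of_chk ⟨9, by decide⟩ chkD4_9
  · exact equivD4_of_chk ⟨10, by decide⟩ chkD4_10
  · exact equivD4_of_chk ⟨11, by decide⟩ chkD4_11
  · exact equivD4_of_chk ⟨12, by decide⟩ chkD4_12
  · exact equivD4_of_chk ⟨13, by decide⟩ chkD4_13
  · exact equivD4_of_chk ⟨14, by decide⟩ chkD4_14
  · exact equivD4_of_chk ⟨15, by decide⟩ chkD4_15
  · exact equivD4_of_chk ⟨16, by decide⟩ chkD4_16
  · exact equivD4_of_chk ⟨17, by decide⟩ chkD4_17
  · exact equivD4_of_chk ⟨18, by decide⟩ chkD4_18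
  · exact equivD4_of_chk ⟨19, by decide⟩ chkD4_19
  · exact equivD4_of_chk ⟨20, by decide⟩ chkD4_20
  · exact equivD4_of_chk ⟨21, by decide⟩ chkD4_21
  · exact equivD4_of_chk ⟨22, by decide⟩ chkD4_22
  · exact equivD4_of_chk ⟨23, by decide⟩ chkD4_23

end Cfsg.Agent.Lib.Helper29.CHO
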